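import Mathlib

set_option autoImplicit false
set_option maxRecDepth 100000

namespace Cfsg.Agent.Lib.Helper11.WB2a

noncomputable def fc0_0 (i : ℕ) : ℕ := (nat_lit 0x3000061000003000061000000000001000000000001000002000062000003000042000001000041000002000021000000000022000001000002)
noncomputable def sc0_0 (i : ℕ) : ℕ := (nat_lit 0x3000005000007000001000006000004000002000700010000fffe0000ffff0000ffff0000ffff)
noncomputable def nc0_0 (i : ℕ) : ℕ := (nat_lit 0x3000002000001000000)
noncomputable def cc0_0 (i : ℕ) : ℕ := (nat_lit 0x2000004000003000008000003000005000001000002000000000000000002000003000001000001000000000006)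

end Cfsg.Agent.Lib.Helper11.WB2a
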